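import Mathlib
import Cfsg.Agent.Lib.Helper94.OMG.Defs
import Cfsg.Agent.Lib.Helper38.OPG.XL

/-!
# Project OMG (S2415): package [SHORT]

The short root elements `E(e_i, w)`, `E(f_i, w)` (`w` in the anisotropic plane) for all
`i ≠ l` give those for `i = l`, by conjugation with a Weyl element of the Levi `SL_k`.
-/

set_option autoImplicit false
open scoped Matrix MatrixGroups

namespace Cfsg.Agent.Lib.Helper59.OMG

open Cfsg.Agent.Lib.Helper31.Siegel Cfsg.Agent.Lib.Helper32.OPG Cfsg.Agent.Lib.Helper64.OParM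
open Cfsg.Agent.Lib.Helper23.OHyp Cfsg.Agent.Lib.Helper94.OMG

universe u

variable {k : ℕ} {F : Type u} [Field F] {a b : F}

/-- The action of the Levi image of a transvection. -/
theorem Lm_transv_act {i j : Fin k} (hij : i ≠ j) (c : F) (x : MI k → F) :
    matM (Lm k F a b (Matrix.SpecialLinearGroup.transvection hij c)) *ᵥ x =
      x + (c * x (Sum.inl (Sum.inl j))) • (eM i : MI k → F) -
        (c * x (Sum.inl (Sum.inr i))) • (fM j : MI k → F) := by
  rw [Lm_apply, matM_Em, Cfsg.Agent.Lib.Helper38.OPG.pkgXL k F i j hij c (x ∘ Sum.inl)]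
  rw [Cfsg.Agent.Lib.Helper32.OPG.B_Fv, Cfsg.Agent.Lib.Helper32.OPG.B_E]
  ext ((m | m) | t)
  · simp [Pi.single_apply]
  · simp [Pi.single_apply]
  · simp

theorem Xact_e {i j : Fin k} (hij : i ≠ j) (c : F) (m : Fin k) :
    matM (Lm k F a b (Matrix.SpecialLinearGroup.transvection hij c)) *ᵥ (eM m : MI k → F) =
      eM m + (if j = m then c else 0) • (eM i : MI k → F) := by
  rw [Lm_transv_act]
  by_cases h : j = m
  · subst h; simp
  · simp [h]

theorem Xact_f {i j : Fin k} (hij : i ≠ j) (c : F) (m : Fin k) :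
    matM (Lm k F a b (Matrix.SpecialLinearGroup.transvection hij c)) *ᵥ (fM m : MI k → F) =
      fM m - (if i = m then c else 0) • (fM j : MI k → F) := by
  rw [Lm_transv_act]
  by_cases h : i = m
  · subst h; simp
  · simp [h]

theorem Xact_z {i j : Fin k} (hij : i ≠ j) (c : F) (z : MI k → F) (hz : IsZ z) :
    matM (Lm k F a b (Matrix.SpecialLinearGroup.transvection hij c)) *ᵥ z = z := by
  rw [Lm_transv_act, hz, hz]
  simp

/-- Conjugation of Eichler elements. -/
theorem isEich_conj {u w : MI k → F} {σ : ↥(GM k F a b)} (g : ↥(GM k F a b))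
    (hσ : IsEich a b u w σ) : IsEich a b (matM g *ᵥ u) (matM g *ᵥ w) (g * σ * g⁻¹) := by
  intro x
  have h1 : BM k a b (matM g *ᵥ u) x = BM k a b u (matM g⁻¹ *ᵥ x) := by
    have h := BM_act g u (matM g⁻¹ *ᵥ x)
    rw [actM_inv] at h
    exact h
  have h2 : BM k a b (matM g *ᵥ w) x = BM k a b w (matM g⁻¹ *ᵥ x) := by
    have h := BM_act g w (matM g⁻¹ *ᵥ x)
    rw [actM_inv] at h
    exact h
  rw [mulM_act, mulM_act, hσ (matM g⁻¹ *ᵥ x), Matrix.mulVec_sub, Matrix.mulVec_add,
    Matrix.mulVec_smul, Matrix.mulVec_smul, actM_inv, h1, h2, QM_act]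

theorem pkgShort : PkgShort.{u} := by
  intro F _ _ k a b _ hk K hL l H i w hw σ hσ
  by_cases hil : i = l
  · subst hil
    haveI : Nontrivial (Fin k) := Fin.nontrivial_iff_two_le.mpr hk
    obtain ⟨i0, hi0⟩ := exists_ne i
    have hi0' : i ≠ i0 := Ne.symm hi0
    obtain ⟨ν, hν⟩ : ∃ ν : ↥(GM k F a b), ν =
        Lm k F a b (Matrix.SpecialLinearGroup.transvection hi0' 1) *
        Lm k F a b (Matrix.SpecialLinearGroup.transvection hi0 (-1)) *
        Lm k F a b (Matrix.SpecialLinearGroup.transvection hi0' 1) := ⟨_, rfl⟩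
    have hνK : ν ∈ K := by
      rw [hν]
      exact K.mul_mem (K.mul_mem (hL _) (hL _)) (hL _)
    have hνe : matM ν *ᵥ (eM i0 : MI k → F) = eM i := by
      rw [hν]
      simp only [mulM_act, Xact_e, Xact_f, Matrix.mulVec_add, Matrix.mulVec_sub,
        Matrix.mulVec_smul, if_true, if_neg hi0, if_neg hi0', eq_self_iff_true]
      module
    have hνf : matM ν *ᵥ (fM i0 : MI k → F) = fM i := by
      rw [hν]
      simp only [mulM_act, Xact_e, Xact_f, Matrix.mulVec_add, Matrix.mulVec_sub,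
        Matrix.mulVec_smul, if_true, if_neg hi0, if_neg hi0', eq_self_iff_true]
      module
    have hνz : matM ν *ᵥ w = w := by
      rw [hν, mulM_act, mulM_act, Xact_z _ _ _ hw, Xact_z _ _ _ hw, Xact_z _ _ _ hw]
    have hνe' : matM ν⁻¹ *ᵥ (eM i : MI k → F) = eM i0 := by
      rw [← hνe, invM_act]
    have hνf' : matM ν⁻¹ *ᵥ (fM i : MI k → F) = fM i0 := by
      rw [← hνf, invM_act]
    have hνz' : matM ν⁻¹ *ᵥ w = w := by
      conv_lhs => rw [← hνz]
      rw [invM_act]
    have hτK : ν⁻¹ * σ * ν⁻¹⁻¹ ∈ K := by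
      rcases hσ with hσ | hσ
      · have h1 := isEich_conj ν⁻¹ hσ
        rw [hνe', hνz'] at h1
        exact H i0 hi0 w hw _ (Or.inl h1)
      · have h1 := isEich_conj ν⁻¹ hσ
        rw [hνf', hνz'] at h1
        exact H i0 hi0 w hw _ (Or.inr h1)
    have h2 : σ = ν * (ν⁻¹ * σ * ν⁻¹⁻¹) * ν⁻¹ := by group
    rw [h2]
    exact K.mul_mem (K.mul_mem hνK hτK) (K.inv_mem hνK)
  · exact H i hil w hw σ hσ

end Cfsg.Agent.Lib.Helper59.OMG
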